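import Mathlib
import Cfsg.Agent.Lib.Helper19.SPU.Defs

/-!
# SPU (S2316) package [FIT1]: the double count for the stratum of isometries
-/

set_option autoImplicit false

namespace Cfsg.Agent.Lib.Helper93.SPU

open Matrix Cfsg.Agent.Lib.Helper19.SPU Cfsg.Agent.Lib.Helper40

universe u

section basics

variable {F : Type u} [Field F] {n : Type} [Fintype n] [DecidableEq n]

theorem isom_isUnit {K g : Matrix n n F} (hK : IsUnit K) (h : Isom K g) : IsUnit g := by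
  rw [Matrix.isUnit_iff_isUnit_det] at hK ⊢
  have h1 := congrArg Matrix.det h
  rw [Matrix.det_mul, Matrix.det_mul, Matrix.det_transpose] at h1
  rw [isUnit_iff_ne_zero] at hK ⊢
  intro h0
  rw [h0] at h1
  simp at h1
  exact hK h1.symm

omit [DecidableEq n] in
theorem isom_mul {K P Q : Matrix n n F} (hP : Isom K P) (hQ : Isom K Q) : Isom K (P * Q) := by
  unfold Isom at *
  rw [Matrix.transpose_mul]
  calc Qᵀ * Pᵀ * K * (P * Q) = Qᵀ * (Pᵀ * K * P) * Q := by simp only [Matrix.mul_assoc]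
    _ = K := by rw [hP, hQ]

theorem isom_inv {K : Matrix n n F} (P : GL n F) (hP : Isom K P.val) : Isom K (P⁻¹).val := by
  unfold Isom at *
  have e1 : ((P⁻¹).val)ᵀ * P.valᵀ = 1 := by
    rw [← Matrix.transpose_mul, Units.mul_inv, Matrix.transpose_one]
  have h2 : ((P⁻¹).val)ᵀ * (P.valᵀ * K * P.val) * (P⁻¹).val = K := by
    calc ((P⁻¹).val)ᵀ * (P.valᵀ * K * P.val) * (P⁻¹).val
        = (((P⁻¹).val)ᵀ * P.valᵀ) * K * (P.val * (P⁻¹).val) := by simp only [Matrix.mul_assoc]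
      _ = K := by rw [e1, Units.mul_inv, Matrix.one_mul, Matrix.mul_one]
  rw [hP] at h2
  exact h2

theorem card_isoGL {K : Matrix n n F} (hK : IsUnit K) :
    Nat.card {P : GL n F // Isom K P.val} = cI K := by
  unfold cI
  apply Nat.card_eq_of_bijective
    (fun P : {P : GL n F // Isom K P.val} => (⟨P.1.val, P.2⟩ : {g : Matrix n n F // Isom K g}))
  constructor
  · rintro ⟨P, hP⟩ ⟨P', hP'⟩ h
    have h1 := congrArg Subtype.val h
    simp only at h1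
    exact Subtype.ext (Units.ext h1)
  · rintro ⟨g, hg⟩
    exact ⟨⟨(isom_isUnit hK hg).unit, by simpa using hg⟩, by simp⟩

end basics

theorem isom_fromBlocks {F : Type u} [Field F] {α β : Type} [Fintype α] [DecidableEq α]
    [Fintype β] [DecidableEq β] (K₁ : Matrix α α F) (K₂ : Matrix β β F) (Q₁ : Matrix α α F)
    (Q₂ : Matrix β β F) :
    Isom (Matrix.fromBlocks K₁ 0 0 K₂) (Matrix.fromBlocks Q₁ 0 0 Q₂) ↔
      Isom K₁ Q₁ ∧ Isom K₂ Q₂ := by
  unfold Isom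
  rw [Matrix.fromBlocks_transpose, Matrix.fromBlocks_multiply, Matrix.fromBlocks_multiply,
    Matrix.fromBlocks_inj]
  simp

theorem isUnit_fromBlocks_diag {F : Type u} [Field F] {α β : Type} [Fintype α] [DecidableEq α]
    [Fintype β] [DecidableEq β] {K₁ : Matrix α α F} {K₂ : Matrix β β F} (h1 : IsUnit K₁)
    (h2 : IsUnit K₂) : IsUnit (Matrix.fromBlocks K₁ 0 0 K₂) := by
  rw [Matrix.isUnit_iff_isUnit_det, Matrix.det_fromBlocks_zero₂₁]
  exact ((Matrix.isUnit_iff_isUnit_det _).mp h1).mul ((Matrix.isUnit_iff_isUnit_det _).mp h2)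

theorem fromBlocks_sub_one {F : Type u} [Field F] {α β : Type} [Fintype α] [DecidableEq α]
    [Fintype β] [DecidableEq β] (a : Matrix α α F) (b : Matrix β β F) :
    Matrix.fromBlocks (a - 1) 0 0 (b - 1) = Matrix.fromBlocks a 0 0 b - 1 := by
  rw [← Matrix.fromBlocks_one]
  ext i j
  rcases i with i | i <;> rcases j with j | j <;> simp [Matrix.sub_apply, Matrix.one_apply]

/-- [FIT1] -/
theorem pkgFit1 (hD : PkgDec1N.{u}) : PkgFit1.{u} := by
  intro F _ _ α β _ _ _ _ K₁ K₂ hK₁ hK₂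
  classical
  have hKu : IsUnit (Matrix.fromBlocks K₁ 0 0 K₂) := isUnit_fromBlocks_diag hK₁.2.2 hK₂.2.2
  have hcard : Fintype.card (α ⊕ β) = Fintype.card α + Fintype.card β := Fintype.card_sum
  let X : Type _ := {x : GL (α ⊕ β) F × Matrix (α ⊕ β) (α ⊕ β) F //
    Isom (Matrix.fromBlocks K₁ 0 0 K₂) x.1.val ∧
    ∃ (g₁ : Matrix α α F) (g₂ : Matrix β β F), Isom K₁ g₁ ∧ Isom K₂ g₂ ∧
      IsNilpotent (g₁ - 1) ∧ IsUnit (g₂ - 1) ∧
      x.2 * x.1.val = x.1.val * Matrix.fromBlocks g₁ 0 0 g₂}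
  let f₁ : {P : GL (α ⊕ β) F // Isom (Matrix.fromBlocks K₁ 0 0 K₂) P.val} ×
      ({g₁ : Matrix α α F // Isom K₁ g₁ ∧ IsNilpotent (g₁ - 1)} ×
        {g₂ : Matrix β β F // Isom K₂ g₂ ∧ IsUnit (g₂ - 1)}) → X := fun t =>
    ⟨(t.1.1, t.1.1.val * Matrix.fromBlocks t.2.1.1 0 0 t.2.2.1 * (t.1.1⁻¹).val),
      t.1.2, t.2.1.1, t.2.2.1, t.2.1.2.1, t.2.2.2.1, t.2.1.2.2, t.2.2.2.2, by
        show t.1.1.val * Matrix.fromBlocks t.2.1.1 0 0 t.2.2.1 * (t.1.1⁻¹).val * t.1.1.val =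
          t.1.1.val * Matrix.fromBlocks t.2.1.1 0 0 t.2.2.1
        rw [Matrix.mul_assoc, Units.inv_mul, Matrix.mul_one]⟩
  have hf₁ : Function.Bijective f₁ := by
    constructor
    · rintro ⟨⟨P, hP⟩, ⟨g₁, hg₁⟩, ⟨g₂, hg₂⟩⟩ ⟨⟨P', hP'⟩, ⟨g₁', hg₁'⟩, ⟨g₂', hg₂'⟩⟩ hEq
      have h1 := congrArg (fun x : X => x.1.1) hEq
      have h2 := congrArg (fun x : X => x.1.2) hEq
      simp only [f₁] at h1 h2
      subst h1
      have h3 : Matrix.fromBlocks g₁ 0 0 g₂ = Matrix.fromBlocks g₁' 0 0 g₂' := by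
        have := congrArg (fun Z => (P⁻¹).val * Z * P.val) h2
        simpa [Matrix.mul_assoc, ← Matrix.mul_assoc (P⁻¹).val P.val] using this
      rw [Matrix.fromBlocks_inj] at h3
      obtain ⟨hNN, -, -, hAA⟩ := h3
      subst hNN
      subst hAA
      rfl
    · rintro ⟨⟨P, M⟩, hP, g₁, g₂, hg₁, hg₂, hN, hA, h⟩
      refine ⟨(⟨P, hP⟩, ⟨g₁, hg₁, hN⟩, ⟨g₂, hg₂, hA⟩), ?_⟩
      apply Subtype.ext
      simp only [f₁]
      refine Prod.ext rfl ?_
      simp only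
      simp only at h
      rw [← h, Matrix.mul_assoc, Units.mul_inv, Matrix.mul_one]
  -- second parametrisation
  have hex : ∀ g : {g : Matrix (α ⊕ β) (α ⊕ β) F //
      Isom (Matrix.fromBlocks K₁ 0 0 K₂) g ∧
        ((g - 1) ^ Fintype.card (α ⊕ β)).rank = Fintype.card β},
      ∃ (P : GL (α ⊕ β) F) (g₁ : Matrix α α F) (g₂ : Matrix β β F),
        Isom (Matrix.fromBlocks K₁ 0 0 K₂) P.val ∧
        g.1 * P.val = P.val * Matrix.fromBlocks g₁ 0 0 g₂ ∧ Isom K₁ g₁ ∧ Isom K₂ g₂ ∧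
        IsNilpotent (g₁ - 1) ∧ IsUnit (g₂ - 1) := by
    intro g
    exact hD F α β K₁ K₂ g.1 hK₁ hK₂ g.2.1 (hcard ▸ g.2.2)
  choose P₀ a₀ b₀ hP₀ hPD ha₀ hb₀ hN₀ hA₀ using hex
  let f₂ : {g : Matrix (α ⊕ β) (α ⊕ β) F //
      Isom (Matrix.fromBlocks K₁ 0 0 K₂) g ∧
        ((g - 1) ^ Fintype.card (α ⊕ β)).rank = Fintype.card β} ×
      ({Q₁ : GL α F // Isom K₁ Q₁.val} × {Q₂ : GL β F // Isom K₂ Q₂.val}) → X := fun t =>
    ⟨(P₀ t.1 * diagGL t.2.1.1 t.2.2.1, t.1.1),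
      by
        show Isom (Matrix.fromBlocks K₁ 0 0 K₂) ((P₀ t.1).val * (diagGL t.2.1.1 t.2.2.1).val)
        refine isom_mul (hP₀ t.1) ?_
        rw [diagGL_val, isom_fromBlocks]
        exact ⟨t.2.1.2, t.2.2.2⟩,
      (t.2.1.1⁻¹).val * a₀ t.1 * t.2.1.1.val, (t.2.2.1⁻¹).val * b₀ t.1 * t.2.2.1.val,
      isom_mul (isom_mul (isom_inv _ t.2.1.2) (ha₀ t.1)) t.2.1.2,
      isom_mul (isom_mul (isom_inv _ t.2.2.2) (hb₀ t.1)) t.2.2.2,
      by
        have e : (t.2.1.1⁻¹).val * a₀ t.1 * t.2.1.1.val - 1 =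
            (t.2.1.1⁻¹).val * (a₀ t.1 - 1) * t.2.1.1.val := by
          rw [Matrix.mul_sub, Matrix.sub_mul, Matrix.mul_one, Units.inv_mul]
        rw [e]
        obtain ⟨k, hk⟩ := hN₀ t.1
        exact ⟨k, by rw [Units.conj_pow', hk, Matrix.mul_zero, Matrix.zero_mul]⟩,
      by
        have e : (t.2.2.1⁻¹).val * b₀ t.1 * t.2.2.1.val - 1 =
            (t.2.2.1⁻¹).val * (b₀ t.1 - 1) * t.2.2.1.val := by
          rw [Matrix.mul_sub, Matrix.sub_mul, Matrix.mul_one, Units.inv_mul]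
        rw [e]
        exact ((t.2.2.1⁻¹).isUnit.mul (hA₀ t.1)).mul t.2.2.1.isUnit,
      by
        show t.1.1 * (P₀ t.1 * diagGL t.2.1.1 t.2.2.1).val =
          (P₀ t.1 * diagGL t.2.1.1 t.2.2.1).val *
          Matrix.fromBlocks ((t.2.1.1⁻¹).val * a₀ t.1 * t.2.1.1.val) 0 0
            ((t.2.2.1⁻¹).val * b₀ t.1 * t.2.2.1.val)
        have e : Matrix.fromBlocks ((t.2.1.1⁻¹).val * a₀ t.1 * t.2.1.1.val) 0 0
            ((t.2.2.1⁻¹).val * b₀ t.1 * t.2.2.1.val) =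
            (diagGL t.2.1.1 t.2.2.1)⁻¹.val * Matrix.fromBlocks (a₀ t.1) 0 0 (b₀ t.1) *
              (diagGL t.2.1.1 t.2.2.1).val := by
          rw [diagGL_inv_val, diagGL_val, Matrix.fromBlocks_multiply, Matrix.fromBlocks_multiply]
          simp
        rw [e, Units.val_mul, ← Matrix.mul_assoc, hPD t.1]
        simp only [Matrix.mul_assoc]
        rw [Units.mul_inv_cancel_left]⟩
  have hf₂ : Function.Bijective f₂ := by
    constructor
    · rintro ⟨M, ⟨Q₁, hQ₁⟩, ⟨Q₂, hQ₂⟩⟩ ⟨M', ⟨Q₁', hQ₁'⟩, ⟨Q₂', hQ₂'⟩⟩ hEq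
      have h1 := congrArg (fun x : X => x.1.1) hEq
      have h2 := congrArg (fun x : X => x.1.2) hEq
      simp only [f₂] at h1 h2
      have hM : M = M' := Subtype.ext h2
      subst hM
      have h3 : diagGL Q₁ Q₂ = diagGL Q₁' Q₂' := mul_left_cancel h1
      have h4 := congrArg Units.val h3
      rw [diagGL_val, diagGL_val, Matrix.fromBlocks_inj] at h4
      obtain ⟨h5, -, -, h6⟩ := h4
      have e1 : Q₁ = Q₁' := Units.ext h5
      have e2 : Q₂ = Q₂' := Units.ext h6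
      subst e1 e2
      rfl
    · rintro ⟨⟨P, M⟩, hP, g₁, g₂, hg₁, hg₂, hN, hA, h⟩
      replace h : M * P.val = P.val * Matrix.fromBlocks g₁ 0 0 g₂ := h
      replace hP : Isom (Matrix.fromBlocks K₁ 0 0 K₂) P.val := hP
      have hMeq : M = P.val * Matrix.fromBlocks g₁ 0 0 g₂ * (P⁻¹).val := by
        rw [← h, Matrix.mul_assoc, Units.mul_inv, Matrix.mul_one]
      have hMiso : Isom (Matrix.fromBlocks K₁ 0 0 K₂) M := by
        rw [hMeq]
        refine isom_mul (isom_mul hP ?_) (isom_inv _ hP)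
        rw [isom_fromBlocks]; exact ⟨hg₁, hg₂⟩
      have h' : (M - 1) * P.val = P.val * Matrix.fromBlocks (g₁ - 1) 0 0 (g₂ - 1) := by
        rw [fromBlocks_sub_one, Matrix.sub_mul, Matrix.mul_sub, h, Matrix.one_mul, Matrix.mul_one]
      have hM : ((M - 1) ^ Fintype.card (α ⊕ β)).rank = Fintype.card β := by
        rw [hcard, rank_pow_of_semiconj (M - 1) _ P h', rank_pow_fromBlocks _ _ hN hA]
      obtain ⟨g, hg⟩ : ∃ g : {g : Matrix (α ⊕ β) (α ⊕ β) F //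
          Isom (Matrix.fromBlocks K₁ 0 0 K₂) g ∧
            ((g - 1) ^ Fintype.card (α ⊕ β)).rank = Fintype.card β}, g = ⟨M, hMiso, hM⟩ :=
        ⟨_, rfl⟩
      have hgM : g.1 = M := by rw [hg]
      have h0' : (M - 1) * (P₀ g).val =
          (P₀ g).val * Matrix.fromBlocks (a₀ g - 1) 0 0 (b₀ g - 1) := by
        rw [fromBlocks_sub_one, Matrix.sub_mul, Matrix.mul_sub, ← hgM, hPD g, Matrix.one_mul,
          Matrix.mul_one]
      have hrig := fitting_rigid (a₀ g - 1) (g₁ - 1) (b₀ g - 1) (g₂ - 1) (hN₀ g) hN (hA₀ g) hA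
        ((P₀ g)⁻¹ * P) (by
          have h1 : Matrix.fromBlocks (a₀ g - 1) 0 0 (b₀ g - 1) * ((P₀ g)⁻¹).val =
              ((P₀ g)⁻¹).val * (M - 1) := by
            have e1 : ((P₀ g)⁻¹).val * ((M - 1) * (P₀ g).val) * ((P₀ g)⁻¹).val =
                ((P₀ g)⁻¹).val * (M - 1) := by
              rw [Matrix.mul_assoc, Matrix.mul_assoc, Units.mul_inv, Matrix.mul_one]
            have e2 : ((P₀ g)⁻¹).val * ((P₀ g).val *
                Matrix.fromBlocks (a₀ g - 1) 0 0 (b₀ g - 1)) * ((P₀ g)⁻¹).val =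
                Matrix.fromBlocks (a₀ g - 1) 0 0 (b₀ g - 1) * ((P₀ g)⁻¹).val := by
              rw [← Matrix.mul_assoc, Units.inv_mul, Matrix.one_mul]
            rw [← e1, ← e2, h0']
          rw [Units.val_mul, ← Matrix.mul_assoc, h1, Matrix.mul_assoc, h', Matrix.mul_assoc])
      obtain ⟨Q₁, Q₂, hQ⟩ := hrig
      have hQiso : Isom (Matrix.fromBlocks K₁ 0 0 K₂) ((P₀ g)⁻¹ * P).val := by
        rw [Units.val_mul]; exact isom_mul (isom_inv _ (hP₀ g)) hP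
      rw [hQ, isom_fromBlocks] at hQiso
      refine ⟨(g, ⟨Q₁, hQiso.1⟩, ⟨Q₂, hQiso.2⟩), ?_⟩
      apply Subtype.ext
      simp only [f₂]
      refine Prod.ext ?_ hgM
      simp only
      have : diagGL Q₁ Q₂ = (P₀ g)⁻¹ * P := Units.ext (by rw [diagGL_val, hQ])
      rw [this, mul_inv_cancel_left]
  have c1 := Nat.card_eq_of_bijective f₁ hf₁
  have c2 := Nat.card_eq_of_bijective f₂ hf₂
  rw [Nat.card_prod, Nat.card_prod] at c1 c2
  rw [card_isoGL hKu] at c1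
  rw [card_isoGL hK₁.2.2, card_isoGL hK₂.2.2] at c2
  unfold cS1 cU cD
  rw [c1, c2]

end Cfsg.Agent.Lib.Helper93.SPU
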