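import Mathlib
import Cfsg.Agent.Lib.Helper19.SPU.Defs
import Cfsg.Agent.Lib.Helper93.SPU.Fit1

/-!
# SPU (S2316) package [FIT2]: the double count for the stratum of the affine family
-/

set_option autoImplicit false

namespace Cfsg.Agent.Lib.Helper93.SPU

open Matrix Cfsg.Agent.Lib.Helper19.SPU Cfsg.Agent.Lib.Helper40

universe u

section basics2

variable {F : Type u} [Field F] {n : Type} [Fintype n] [DecidableEq n]

/-- The affine family is stable under conjugation by isometries. -/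
theorem affA_conj {K X : Matrix n n F} (Q : GL n F) (hX : AffA K X) (hQ : Isom K Q.val) :
    AffA K ((Q⁻¹).val * X * Q.val) := by
  have hQi : Isom K (Q⁻¹).val := isom_inv Q hQ
  unfold Isom at hQ hQi
  unfold AffA at *
  have e1 : K * (Q⁻¹).val = Q.valᵀ * K := by
    calc K * (Q⁻¹).val = Q.valᵀ * K * Q.val * (Q⁻¹).val := by rw [hQ]
      _ = Q.valᵀ * K := by rw [Matrix.mul_assoc, Units.mul_inv, Matrix.mul_one]
  have e2 : ((Q⁻¹).val)ᵀ * K = K * Q.val := by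
    calc ((Q⁻¹).val)ᵀ * K = ((Q⁻¹).val)ᵀ * K * ((Q⁻¹).val * Q.val) := by
          rw [Units.inv_mul, Matrix.mul_one]
      _ = (((Q⁻¹).val)ᵀ * K * (Q⁻¹).val) * Q.val := by simp only [Matrix.mul_assoc]
      _ = K * Q.val := by rw [hQi]
  have e3 : ((Q⁻¹).val * X * Q.val)ᵀ * K + K * ((Q⁻¹).val * X * Q.val) + K =
      Q.valᵀ * (Xᵀ * K + K * X + K) * Q.val := by
    rw [Matrix.transpose_mul, Matrix.transpose_mul]
    have a1 : Q.valᵀ * (Xᵀ * ((Q⁻¹).val)ᵀ) * K = Q.valᵀ * Xᵀ * K * Q.val := by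
      calc Q.valᵀ * (Xᵀ * ((Q⁻¹).val)ᵀ) * K = Q.valᵀ * Xᵀ * (((Q⁻¹).val)ᵀ * K) := by
            simp only [Matrix.mul_assoc]
        _ = Q.valᵀ * Xᵀ * K * Q.val := by rw [e2]; simp only [Matrix.mul_assoc]
    have a2 : K * ((Q⁻¹).val * X * Q.val) = Q.valᵀ * K * X * Q.val := by
      calc K * ((Q⁻¹).val * X * Q.val) = (K * (Q⁻¹).val) * X * Q.val := by
            simp only [Matrix.mul_assoc]
        _ = Q.valᵀ * K * X * Q.val := by rw [e1]
    rw [a1, a2]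
    nth_rewrite 3 [← hQ]
    simp only [Matrix.mul_add, Matrix.add_mul, Matrix.mul_assoc]
  rw [e3, hX, Matrix.mul_zero, Matrix.zero_mul]

theorem affA_conj' {K X : Matrix n n F} (P : GL n F) (hX : AffA K X) (hP : Isom K P.val) :
    AffA K (P.val * X * (P⁻¹).val) := by
  have := affA_conj (P⁻¹) hX (isom_inv P hP)
  rwa [inv_inv] at this

/-- On the affine family, `X` invertible implies `X² + X` invertible. -/
theorem affA_unit {K X : Matrix n n F} (hK : IsUnit K) (hX : AffA K X) (hu : IsUnit X) :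
    IsUnit (X * X + X) := by
  unfold AffA at hX
  have e : K * (X + 1) = -(Xᵀ * K) := by
    rw [Matrix.mul_add, Matrix.mul_one]
    rw [add_assoc] at hX
    exact (eq_neg_of_add_eq_zero_right hX)
  have h1 : IsUnit (Xᵀ * K) := by
    refine IsUnit.mul ?_ hK
    rw [Matrix.isUnit_iff_isUnit_det, Matrix.det_transpose]
    exact (Matrix.isUnit_iff_isUnit_det _).mp hu
  have h2 : IsUnit (K * (X + 1)) := by rw [e]; exact h1.neg
  have h3 : IsUnit (X + 1) := by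
    rw [Matrix.isUnit_iff_isUnit_det, Matrix.det_mul, IsUnit.mul_iff] at h2
    exact (Matrix.isUnit_iff_isUnit_det _).mpr h2.2
  have e2 : X * X + X = X * (X + 1) := by rw [Matrix.mul_add, Matrix.mul_one]
  rw [e2]
  exact hu.mul h3

omit [DecidableEq n] in
theorem sq_add_semiconj {M D P : Matrix n n F} (h : M * P = P * D) :
    (M * M + M) * P = P * (D * D + D) := by
  rw [Matrix.add_mul, Matrix.mul_add, Matrix.mul_assoc, h, ← Matrix.mul_assoc, h,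
    Matrix.mul_assoc]

end basics2

theorem affA_fromBlocks {F : Type u} [Field F] {α β : Type} [Fintype α] [DecidableEq α]
    [Fintype β] [DecidableEq β] (K₁ : Matrix α α F) (K₂ : Matrix β β F) (X₁ : Matrix α α F)
    (X₂ : Matrix β β F) :
    AffA (Matrix.fromBlocks K₁ 0 0 K₂) (Matrix.fromBlocks X₁ 0 0 X₂) ↔
      AffA K₁ X₁ ∧ AffA K₂ X₂ := by
  unfold AffA
  rw [Matrix.fromBlocks_transpose, Matrix.fromBlocks_multiply, Matrix.fromBlocks_multiply,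
    Matrix.fromBlocks_add, Matrix.fromBlocks_add, ← Matrix.fromBlocks_zero, Matrix.fromBlocks_inj]
  simp

theorem fromBlocks_sq_add {F : Type u} [Field F] {α β : Type} [Fintype α] [DecidableEq α]
    [Fintype β] [DecidableEq β] (a : Matrix α α F) (b : Matrix β β F) :
    Matrix.fromBlocks (a * a + a) 0 0 (b * b + b) =
      Matrix.fromBlocks a 0 0 b * Matrix.fromBlocks a 0 0 b + Matrix.fromBlocks a 0 0 b := by
  rw [Matrix.fromBlocks_multiply, Matrix.fromBlocks_add]; simp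

/-- [FIT2] -/
theorem pkgFit2 (hD : PkgDec2N.{u}) : PkgFit2.{u} := by
  intro F _ _ α β _ _ _ _ K₁ K₂ hK₁ hK₂
  classical
  have hKu : IsUnit (Matrix.fromBlocks K₁ 0 0 K₂) := isUnit_fromBlocks_diag hK₁.2.2 hK₂.2.2
  have hcard : Fintype.card (α ⊕ β) = Fintype.card α + Fintype.card β := Fintype.card_sum
  let X : Type _ := {x : GL (α ⊕ β) F × Matrix (α ⊕ β) (α ⊕ β) F //
    Isom (Matrix.fromBlocks K₁ 0 0 K₂) x.1.val ∧
    ∃ (g₁ : Matrix α α F) (g₂ : Matrix β β F), AffA K₁ g₁ ∧ AffA K₂ g₂ ∧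
      IsNilpotent (g₁ * g₁ + g₁) ∧ IsUnit g₂ ∧
      x.2 * x.1.val = x.1.val * Matrix.fromBlocks g₁ 0 0 g₂}
  let f₁ : {P : GL (α ⊕ β) F // Isom (Matrix.fromBlocks K₁ 0 0 K₂) P.val} ×
      ({g₁ : Matrix α α F // AffA K₁ g₁ ∧ IsNilpotent (g₁ * g₁ + g₁)} ×
        {g₂ : Matrix β β F // AffA K₂ g₂ ∧ IsUnit g₂}) → X := fun t =>
    ⟨(t.1.1, t.1.1.val * Matrix.fromBlocks t.2.1.1 0 0 t.2.2.1 * (t.1.1⁻¹).val),
      t.1.2, t.2.1.1, t.2.2.1, t.2.1.2.1, t.2.2.2.1, t.2.1.2.2, t.2.2.2.2, by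
        show t.1.1.val * Matrix.fromBlocks t.2.1.1 0 0 t.2.2.1 * (t.1.1⁻¹).val * t.1.1.val =
          t.1.1.val * Matrix.fromBlocks t.2.1.1 0 0 t.2.2.1
        rw [Matrix.mul_assoc, Units.inv_mul, Matrix.mul_one]⟩
  have hf₁ : Function.Bijective f₁ := by
    constructor
    · rintro ⟨⟨P, hP⟩, ⟨g₁, hg₁⟩, ⟨g₂, hg₂⟩⟩ ⟨⟨P', hP'⟩, ⟨g₁', hg₁'⟩, ⟨g₂', hg₂'⟩⟩ hEq
      have h1 := congrArg (fun x : X => x.1.1) hEq
      have h2 := congrArg (fun x : X => x.1.2) hEq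
      simp only [f₁] at h1 h2
      subst h1
      have h3 : Matrix.fromBlocks g₁ 0 0 g₂ = Matrix.fromBlocks g₁' 0 0 g₂' := by
        have := congrArg (fun Z => (P⁻¹).val * Z * P.val) h2
        simpa [Matrix.mul_assoc, ← Matrix.mul_assoc (P⁻¹).val P.val] using this
      rw [Matrix.fromBlocks_inj] at h3
      obtain ⟨hNN, -, -, hAA⟩ := h3
      subst hNN
      subst hAA
      rfl
    · rintro ⟨⟨P, M⟩, hP, g₁, g₂, hg₁, hg₂, hN, hA, h⟩
      refine ⟨(⟨P, hP⟩, ⟨g₁, hg₁, hN⟩, ⟨g₂, hg₂, hA⟩), ?_⟩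
      apply Subtype.ext
      simp only [f₁]
      refine Prod.ext rfl ?_
      simp only
      simp only at h
      rw [← h, Matrix.mul_assoc, Units.mul_inv, Matrix.mul_one]
  -- second parametrisation
  have hex : ∀ g : {g : Matrix (α ⊕ β) (α ⊕ β) F //
      AffA (Matrix.fromBlocks K₁ 0 0 K₂) g ∧
        ((g * g + g) ^ Fintype.card (α ⊕ β)).rank = Fintype.card β},
      ∃ (P : GL (α ⊕ β) F) (g₁ : Matrix α α F) (g₂ : Matrix β β F),
        Isom (Matrix.fromBlocks K₁ 0 0 K₂) P.val ∧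
        g.1 * P.val = P.val * Matrix.fromBlocks g₁ 0 0 g₂ ∧ AffA K₁ g₁ ∧ AffA K₂ g₂ ∧
        IsNilpotent (g₁ * g₁ + g₁) ∧ IsUnit g₂ := by
    intro g
    exact hD F α β K₁ K₂ g.1 hK₁ hK₂ g.2.1 (hcard ▸ g.2.2)
  choose P₀ a₀ b₀ hP₀ hPD ha₀ hb₀ hN₀ hA₀ using hex
  let f₂ : {g : Matrix (α ⊕ β) (α ⊕ β) F //
      AffA (Matrix.fromBlocks K₁ 0 0 K₂) g ∧
        ((g * g + g) ^ Fintype.card (α ⊕ β)).rank = Fintype.card β} ×
      ({Q₁ : GL α F // Isom K₁ Q₁.val} × {Q₂ : GL β F // Isom K₂ Q₂.val}) → X := fun t =>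
    ⟨(P₀ t.1 * diagGL t.2.1.1 t.2.2.1, t.1.1),
      by
        show Isom (Matrix.fromBlocks K₁ 0 0 K₂) ((P₀ t.1).val * (diagGL t.2.1.1 t.2.2.1).val)
        refine isom_mul (hP₀ t.1) ?_
        rw [diagGL_val, isom_fromBlocks]
        exact ⟨t.2.1.2, t.2.2.2⟩,
      (t.2.1.1⁻¹).val * a₀ t.1 * t.2.1.1.val, (t.2.2.1⁻¹).val * b₀ t.1 * t.2.2.1.val,
      affA_conj _ (ha₀ t.1) t.2.1.2,
      affA_conj _ (hb₀ t.1) t.2.2.2,
      by
        have e : (t.2.1.1⁻¹).val * a₀ t.1 * t.2.1.1.val * ((t.2.1.1⁻¹).val * a₀ t.1 * t.2.1.1.val)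
            + (t.2.1.1⁻¹).val * a₀ t.1 * t.2.1.1.val =
            (t.2.1.1⁻¹).val * (a₀ t.1 * a₀ t.1 + a₀ t.1) * t.2.1.1.val := by
          rw [Matrix.mul_add, Matrix.add_mul]
          congr 1
          simp only [Matrix.mul_assoc]
          rw [Units.mul_inv_cancel_left]
        rw [e]
        obtain ⟨k, hk⟩ := hN₀ t.1
        exact ⟨k, by rw [Units.conj_pow', hk, Matrix.mul_zero, Matrix.zero_mul]⟩,
      ((t.2.2.1⁻¹).isUnit.mul (hA₀ t.1)).mul t.2.2.1.isUnit,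
      by
        show t.1.1 * (P₀ t.1 * diagGL t.2.1.1 t.2.2.1).val =
          (P₀ t.1 * diagGL t.2.1.1 t.2.2.1).val *
          Matrix.fromBlocks ((t.2.1.1⁻¹).val * a₀ t.1 * t.2.1.1.val) 0 0
            ((t.2.2.1⁻¹).val * b₀ t.1 * t.2.2.1.val)
        have e : Matrix.fromBlocks ((t.2.1.1⁻¹).val * a₀ t.1 * t.2.1.1.val) 0 0
            ((t.2.2.1⁻¹).val * b₀ t.1 * t.2.2.1.val) =
            (diagGL t.2.1.1 t.2.2.1)⁻¹.val * Matrix.fromBlocks (a₀ t.1) 0 0 (b₀ t.1) *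
              (diagGL t.2.1.1 t.2.2.1).val := by
          rw [diagGL_inv_val, diagGL_val, Matrix.fromBlocks_multiply, Matrix.fromBlocks_multiply]
          simp
        rw [e, Units.val_mul, ← Matrix.mul_assoc, hPD t.1]
        simp only [Matrix.mul_assoc]
        rw [Units.mul_inv_cancel_left]⟩
  have hf₂ : Function.Bijective f₂ := by
    constructor
    · rintro ⟨M, ⟨Q₁, hQ₁⟩, ⟨Q₂, hQ₂⟩⟩ ⟨M', ⟨Q₁', hQ₁'⟩, ⟨Q₂', hQ₂'⟩⟩ hEq
      have h1 := congrArg (fun x : X => x.1.1) hEq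
      have h2 := congrArg (fun x : X => x.1.2) hEq
      simp only [f₂] at h1 h2
      have hM : M = M' := Subtype.ext h2
      subst hM
      have h3 : diagGL Q₁ Q₂ = diagGL Q₁' Q₂' := mul_left_cancel h1
      have h4 := congrArg Units.val h3
      rw [diagGL_val, diagGL_val, Matrix.fromBlocks_inj] at h4
      obtain ⟨h5, -, -, h6⟩ := h4
      have e1 : Q₁ = Q₁' := Units.ext h5
      have e2 : Q₂ = Q₂' := Units.ext h6
      subst e1 e2
      rfl
    · rintro ⟨⟨P, M⟩, hP, g₁, g₂, hg₁, hg₂, hN, hA, h⟩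
      replace h : M * P.val = P.val * Matrix.fromBlocks g₁ 0 0 g₂ := h
      replace hP : Isom (Matrix.fromBlocks K₁ 0 0 K₂) P.val := hP
      have hMeq : M = P.val * Matrix.fromBlocks g₁ 0 0 g₂ * (P⁻¹).val := by
        rw [← h, Matrix.mul_assoc, Units.mul_inv, Matrix.mul_one]
      have hMaff : AffA (Matrix.fromBlocks K₁ 0 0 K₂) M := by
        rw [hMeq]
        exact affA_conj' P ((affA_fromBlocks _ _ _ _).mpr ⟨hg₁, hg₂⟩) hP
      have hA' : IsUnit (g₂ * g₂ + g₂) := affA_unit hK₂.2.2 hg₂ hA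
      have h' : (M * M + M) * P.val =
          P.val * Matrix.fromBlocks (g₁ * g₁ + g₁) 0 0 (g₂ * g₂ + g₂) := by
        rw [fromBlocks_sq_add]; exact sq_add_semiconj h
      have hM : ((M * M + M) ^ Fintype.card (α ⊕ β)).rank = Fintype.card β := by
        rw [hcard, rank_pow_of_semiconj (M * M + M) _ P h', rank_pow_fromBlocks _ _ hN hA']
      obtain ⟨g, hg⟩ : ∃ g : {g : Matrix (α ⊕ β) (α ⊕ β) F //
          AffA (Matrix.fromBlocks K₁ 0 0 K₂) g ∧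
            ((g * g + g) ^ Fintype.card (α ⊕ β)).rank = Fintype.card β}, g = ⟨M, hMaff, hM⟩ :=
        ⟨_, rfl⟩
      have hgM : g.1 = M := by rw [hg]
      have h0' : (M * M + M) * (P₀ g).val =
          (P₀ g).val * Matrix.fromBlocks (a₀ g * a₀ g + a₀ g) 0 0 (b₀ g * b₀ g + b₀ g) := by
        rw [fromBlocks_sq_add]; exact sq_add_semiconj (hgM ▸ hPD g)
      have hrig := fitting_rigid (a₀ g * a₀ g + a₀ g) (g₁ * g₁ + g₁) (b₀ g * b₀ g + b₀ g)
        (g₂ * g₂ + g₂) (hN₀ g) hN (affA_unit hK₂.2.2 (hb₀ g) (hA₀ g)) hA'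
        ((P₀ g)⁻¹ * P) (by
          have h1 : Matrix.fromBlocks (a₀ g * a₀ g + a₀ g) 0 0 (b₀ g * b₀ g + b₀ g) *
              ((P₀ g)⁻¹).val = ((P₀ g)⁻¹).val * (M * M + M) := by
            have e1 : ((P₀ g)⁻¹).val * ((M * M + M) * (P₀ g).val) * ((P₀ g)⁻¹).val =
                ((P₀ g)⁻¹).val * (M * M + M) := by
              rw [Matrix.mul_assoc, Matrix.mul_assoc, Units.mul_inv, Matrix.mul_one]
            have e2 : ((P₀ g)⁻¹).val * ((P₀ g).val *
                Matrix.fromBlocks (a₀ g * a₀ g + a₀ g) 0 0 (b₀ g * b₀ g + b₀ g)) *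
                  ((P₀ g)⁻¹).val =
                Matrix.fromBlocks (a₀ g * a₀ g + a₀ g) 0 0 (b₀ g * b₀ g + b₀ g) *
                  ((P₀ g)⁻¹).val := by
              rw [← Matrix.mul_assoc, Units.inv_mul, Matrix.one_mul]
            rw [← e1, ← e2, h0']
          rw [Units.val_mul, ← Matrix.mul_assoc, h1, Matrix.mul_assoc, h', Matrix.mul_assoc])
      obtain ⟨Q₁, Q₂, hQ⟩ := hrig
      have hQiso : Isom (Matrix.fromBlocks K₁ 0 0 K₂) ((P₀ g)⁻¹ * P).val := by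
        rw [Units.val_mul]; exact isom_mul (isom_inv _ (hP₀ g)) hP
      rw [hQ, isom_fromBlocks] at hQiso
      refine ⟨(g, ⟨Q₁, hQiso.1⟩, ⟨Q₂, hQiso.2⟩), ?_⟩
      apply Subtype.ext
      simp only [f₂]
      refine Prod.ext ?_ hgM
      simp only
      have : diagGL Q₁ Q₂ = (P₀ g)⁻¹ * P := Units.ext (by rw [diagGL_val, hQ])
      rw [this, mul_inv_cancel_left]
  have c1 := Nat.card_eq_of_bijective f₁ hf₁
  have c2 := Nat.card_eq_of_bijective f₂ hf₂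
  rw [Nat.card_prod, Nat.card_prod] at c1 c2
  rw [card_isoGL hKu] at c1
  rw [card_isoGL hK₁.2.2, card_isoGL hK₂.2.2] at c2
  unfold cS2 cT cDA
  rw [c1, c2]

end Cfsg.Agent.Lib.Helper93.SPU
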